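import Mathlib
import Cfsg.Agent.H308.D2.EvenDim

/-!
# F-D+2, q odd, `m - 1` even: the quotient `K_1 / O_p(K_1)` (helper50; S3691)
-/

set_option autoImplicit false
set_option linter.unusedSectionVars false

open QuadraticMap Module Cfsg

namespace Cfsg.Agent.H50.D2

open Cfsg.Agent.H386.Rg Cfsg.Agent.H997.Rg Cfsg.Agent.H308.D2

universe u v

variable {F : Type u} {V : Type v} [Field F] [Finite F] [AddCommGroup V] [Module F V] [FiniteDimensional F V]
  {Q : QuadraticForm F V} {p f m : ℕ} {K : Subgroup (V ≃ₗ[F] V)} {r : ℕ} {y : V ≃ₗ[F] V} {e g : V} {W : Submodule F V}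

/-- a singular vector of a hyperbolic plane perpendicular to a nonsingular vector of the plane is zero -/
theorem hyp_zero {e' g' v x : V} (he : Q e' = 0) (hg : Q g' = 0) (heg : polar Q e' g' = 1)
    (hv : v ∈ Submodule.span F ({e', g'} : Set V)) (hQv : Q v ≠ 0) (hx : x ∈ Submodule.span F ({e', g'} : Set V))
    (hQx : Q x = 0) (hxv : polar Q x v = 0) : x = 0 := by
  have hee : polar Q e' e' = 0 := by rw [polar_self', he, mul_zero]
  have hgg : polar Q g' g' = 0 := by rw [polar_self', hg, mul_zero]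
  have hge : polar Q g' e' = 1 := by rw [polar_comm, heg]
  obtain ⟨α, β, rfl⟩ := Submodule.mem_span_pair.1 hv
  obtain ⟨γ, δ, rfl⟩ := Submodule.mem_span_pair.1 hx
  rw [Q_comb, he, hg, heg] at hQv hQx
  simp only [mul_zero, mul_one, add_zero, zero_add] at hQv hQx
  simp only [QuadraticMap.polar_add_right, QuadraticMap.polar_add_left, QuadraticMap.polar_smul_left,
    QuadraticMap.polar_smul_right, hee, hgg, heg, hge, smul_eq_mul, mul_zero, mul_one, zero_add, add_zero] at hxv
  have hα : α ≠ 0 := left_ne_zero_of_mul hQv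
  have hβ : β ≠ 0 := right_ne_zero_of_mul hQv
  rcases mul_eq_zero.1 hQx with h1 | h1
  · subst h1
    have h2 : α * δ = 0 := by linear_combination hxv
    have h3 := (mul_eq_zero.1 h2).resolve_left hα
    rw [h3, zero_smul, zero_smul, add_zero]
  · subst h1
    have h2 : β * γ = 0 := by linear_combination hxv
    have h3 := (mul_eq_zero.1 h2).resolve_left hβ
    rw [h3, zero_smul, zero_smul, add_zero]

theorem quot_dvd (h : D2 Q p f m K) (hp2 : p ≠ 2) (Y : YD Q p f m K r y e g)
    (R : RD Q m K y e g (Op p K (e + g)) W) (hsol : Group.IsSolvable (stb K (e + g))) :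
    ∃ c, ¬ p ∣ c ∧ Nat.card (stb K (e + g) ⧸ pCore p (stb K (e + g))) ∣ c * (m - 1) := by
  classical
  have hfinE := finite_equiv (F := F) (V := V)
  have hcharP := charP h
  have := Fact.mk h.hp
  have hm := h.hm
  set K1 := stb K (e + g) with hK1
  have hv : Q (e + g) ≠ 0 := by rw [Y.hv]; exact one_ne_zero
  have hodd : Odd (Nat.card K1) := h.odd_stb hp2 hv
  obtain ⟨hrp, hr5, hordq⟩ := r_facts h Y.hr Y.hord
  have hinv : ∀ k : K1, ∀ w ∈ W, (k : V ≃ₗ[F] V) w ∈ W := fun k w hw =>
    R.inv k k.2.1 (Op_normalizer k.2) k.2.2 w hw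
  let ρ0 : K1 →* Module.End F W :=
    { toFun := fun k => ((k : V ≃ₗ[F] V) : V →ₗ[F] V).restrict (hinv k)
      map_one' := by ext x; rfl
      map_mul' := fun a b => by ext x; rfl }
  have hρ0 : ∀ (k : K1) (x : W), ((ρ0 k x : W) : V) = (k : V ≃ₗ[F] V) x := fun k x => rfl
  have hN : (pCore p K1).Normal := Cfsg.Agent.Lib.Cores.pCore_normal p
  have hker : pCore p K1 ≤ ρ0.ker := by
    intro k hk
    rw [MonoidHom.mem_ker]
    ext x
    rw [hρ0]
    exact R.fixA k ⟨k, hk, rfl⟩ x x.2
  let ρ : K1 ⧸ pCore p K1 →* Module.End F W := QuotientGroup.lift (pCore p K1) ρ0 hker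
  have hρ : ∀ k : K1, ρ (QuotientGroup.mk k) = ρ0 k := fun k => rfl
  have hW0 : 0 < finrank F W := by rw [R.dim]; omega
  have hntW : Nontrivial W := Module.nontrivial_of_finrank_pos (R := F) hW0
  have hoddq : Odd (Nat.card (K1 ⧸ pCore p K1)) := Odd.of_dvd_nat hodd (Subgroup.card_quotient_dvd_card _)
  have hord2 : ∀ k : K1, orderOf k ≠ 2 := by
    intro k hk
    have h1 : orderOf k ∣ Nat.card K1 := orderOf_dvd_natCard k
    rw [hk] at h1
    exact (Nat.not_even_iff_odd.2 hodd) (even_iff_two_dvd.2 h1)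
  have hfpf : Fpf p ρ := by
    intro b hb hbp x hbx
    obtain ⟨k, rfl⟩ := QuotientGroup.mk_surjective b
    set s := orderOf (QuotientGroup.mk k : K1 ⧸ pCore p K1) with hs
    have := Fact.mk hb
    have h1 : k ^ s ∈ pCore p K1 := by
      rw [← QuotientGroup.eq_one_iff, QuotientGroup.mk_pow, hs, pow_orderOf_eq_one]
    obtain ⟨j, hj⟩ := Cfsg.Agent.Lib.Cores.pCore_isPGroup p (⟨k ^ s, h1⟩ : pCore p K1)
    have h2 : (k ^ p ^ j) ^ s = 1 := by
      rw [← pow_mul, mul_comm, pow_mul]; exact congrArg Subtype.val hj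
    have h3 : k ^ p ^ j ≠ 1 := by
      intro h4
      have h5 : (QuotientGroup.mk k : K1 ⧸ pCore p K1) ^ p ^ j = 1 := by
        rw [← QuotientGroup.mk_pow, h4, QuotientGroup.mk_one]
      have h6 := orderOf_dvd_of_pow_eq_one h5
      rw [← hs] at h6
      exact hbp ((Nat.prime_dvd_prime_iff_eq hb h.hp).1 (hb.dvd_of_dvd_pow h6))
    have h7 : orderOf (k ^ p ^ j) = s := orderOf_eq_prime h2 h3
    have h8 : ρ0 (k ^ p ^ j) x = x := by
      rw [map_pow, ← hρ]
      generalize p ^ j = n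
      induction n with
      | zero => rw [pow_zero]; rfl
      | succ n ih => rw [pow_succ, Module.End.mul_apply, hbx, ih]
    have h9 : ((k ^ p ^ j : K1) : V ≃ₗ[F] V) (x : V) = x := by
      have := congrArg Subtype.val h8
      rwa [hρ0] at this
    have h10 : orderOf ((k ^ p ^ j : K1) : V ≃ₗ[F] V) = s := by rw [Subgroup.orderOf_coe]; exact h7
    have h11 : s ≠ 2 := by
      rw [← h7]; exact hord2 _
    obtain ⟨e', g', he', hg', heg', hvs', hfix'⟩ := h.fixplane' hv (k ^ p ^ j : K1).2 (by rw [h10]; exact hb)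
      (by rw [h10]; exact hbp) (by rw [h10]; exact h11)
    apply Subtype.ext
    refine hyp_zero he' hg' heg' hvs' hv ((hfix' _).1 h9) (R.ts _ x.2) ?_
    rw [QuadraticMap.polar_add_right, R.pe _ x.2, R.pg _ x.2, add_zero]
  set y' : K1 := ⟨y, Y.hys⟩ with hy'
  have hyq : orderOf (QuotientGroup.mk y' : K1 ⧸ pCore p K1) = r := by
    have := Fact.mk Y.hr
    refine orderOf_eq_prime ?_ ?_
    · rw [← QuotientGroup.mk_pow]
      have : y' ^ r = 1 := Subtype.ext Y.pow
      rw [this, QuotientGroup.mk_one]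
    · intro h1
      obtain ⟨x, hx⟩ := exists_ne (0 : W)
      apply hx
      apply Subtype.ext
      refine R.yfix x x.2 ?_
      have h2 : ρ (QuotientGroup.mk y') x = x := by rw [h1, map_one]; rfl
      rw [hρ] at h2
      have h3 := congrArg Subtype.val h2
      rwa [hρ0] at h3
  have hsolq : Group.IsSolvable (K1 ⧸ pCore p K1) := inferInstance
  exact card_dvd h.hp hfpf hoddq hsolq (Cfsg.Agent.Lib.Cores.pCore_quotient_pCore p) Y.hr hr5 hrp hyq hordq
    (by rw [R.dim]; omega)

end Cfsg.Agent.H50.D2
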